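import Cfsg.Agent.Lib.Helper3.Stcs6

set_option autoImplicit false
set_option maxRecDepth 100000

namespace Cfsg.Agent.Lib.Helper3.S43

open Cfsg.Agent.Lib.Helper11 Cfsg.Agent.Lib.Helper3

set_option maxHeartbeats 0

noncomputable def ntl : List (List (ℕ × ℕ)) := [[], [(0xdb7fe000, 32), (0x297b00000000, 16), (0xd2008900000079, 8), (0x7000100000600, 4), (0x2010002300001223, 2), (0x4044404400001011, 1), (0x2002000200000022, 2), (0xa00000200, 4), (0xa0004000000078, 8), (0xa94a00000000, 16), (0xdb7fe000, 32)], [(0x93871240, 32), (0x83330000c968, 16), (0x600cc000c00fc, 8), (0x60105080e0c0208, 4), (0x1020020202301001, 2), (0x1011410105100441, 1), (0x20000200000200, 2), (0x6020008060c0e0c, 4), (0x14004e002400dc, 8), (0x833600008100, 16), (0x93871270, 32)], [(0xdb7fe000, 32), (0x52b500000000, 16), (0xbf008200000087, 8), (0x100020900000002, 4), (0x1000202300002132, 2), (0x1440404100001440, 1), (0x200200200002020, 2), (0xc00000000000006, 4), (0x76009000000086, 8), (0xd28400000000, 16), (0xdb7fe000, 32)], [(0x93871270,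 32), (0x10c900008988, 16), (0x4e00320024005c, 8), (0xf08000f0604060c, 4), (0x2003201301203, 2), (0x1401104105400444, 1), (0x2002002200000002, 2), (0xa08020e0e0c0208, 4), (0xcc0032000c007c, 8), (0x10cc000089c8, 16), (0x93871240, 32)], [(0x1ad0, 32), (0x8000, 16), (0x3a00c00010, 8), (0xc08000e00, 4), (0x1203011322, 2), (0x100140100504, 1), (0x200000002, 2), (0xc08000e00, 4), (0x3000c00010, 8), (0x8000, 16), (0x1a90, 32)], [(0x9adaddfc, 32), (0x39a00002140, 16), (0xca00fa00400006, 8), (0x9080a0e04000009, 4), (0x1000123200210122, 2), (0x4100040100400001, 1), (0x200020200200002, 2), (0x40a00000008, 4), (0xd2002200640004, 8), (0xb9200000164, 16), (0x9adadd7c, 32)], [(0x9adadd7c, 32), (0xb9200000164, 16), (0xd2002200640006, 8), (0x8080c0a04000003, 4), (0x3200123200210122, 2), (0x1100040100400010, 1), (0x2000020200200020, 2), (0x800020e00000002, 4), (0xca00fa00400004, 8), (0x39a00002140, 16), (0x9adaddfc, 32)], [(0x1ad0, 32), (0x8000, 16), (0x3a00c00010, 8), (0xc08000e00, 4), (0x1203011322, 2), (0x100140100504, 1),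 (0x200000002, 2), (0xc08000e00, 4), (0x3000c00010, 8), (0x8000, 16), (0x1a90, 32)], [(0xffc01c20, 32), (0xf76400002038, 16), (0xc00d3003000c0, 8), (0x400030300080808, 4), (0x1020133000210212, 2), (0x4001010000144, 1), (0x20, 2), (0x40408020008080e, 4), (0x80018003000c0, 8), (0xf3a400002030, 16), (0xffc01c70, 32)], [(0xffc01c70, 32), (0xf3a400002030, 16), (0x5400f8003000c0, 8), (0x4040c0d0008080e, 4), (0x30130300210010, 2), (0x400000410000114, 1), (0x222, 2), (0x4000e00080808, 4), (0x5000f0003000c0, 8), (0xf76400002038, 16), (0xffc01c20, 32)], [(0x1ad0, 32), (0x8000, 16), (0x3a00c00010, 8), (0xc08000e00, 4), (0x1203011322, 2), (0x100140100504, 1), (0x200000002, 2), (0xc08000e00, 4), (0x3000c00010, 8), (0x8000, 16), (0x1a90, 32)]]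
noncomputable def INV : ℕ := 406810720028627040
abbrev deg : ℕ := 40

theorem setup : NetSetup ntl deg 6 INV 11 where
  hok := by decide +kernel
  hstab := by decide +kernel
  hlen := by decide +kernel
  h0 := by decide +kernel
  hINV := by decide +kernel
  hINV0 := by decide +kernel
  htriv := by decide +kernel

end Cfsg.Agent.Lib.Helper3.S43
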