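import Cfsg.Agent.Lib.Helper3.S43.Bd
import Cfsg.Agent.Lib.Helper3.MatL2
import Cfsg.Agent.Lib.Helper3.MatL3

set_option autoImplicit false
set_option maxRecDepth 100000

namespace Cfsg.Agent.Lib.Helper3.S43

open Cfsg.Agent.Lib.Helper11 Cfsg.Agent.Lib.Helper3 Matrix

set_option maxHeartbeats 0

instance factP : Fact (Nat.Prime 3) := ⟨by norm_num⟩

def AL : List (List (ZMod 3)) := [[1, 0, 0, 0], [1, 1, 0, 2], [1, 1, 1, 1], [0, 2, 0, 2]]
def BL : List (List (ZMod 3)) := [[0, 2, 0, 0], [0, 1, 2, 0], [1, 0, 1, 2], [1, 1, 0, 0]]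
def frInvL : List (List (ZMod 3)) := [[1, 0, 0, 0], [1, 0, 1, 0], [2, 0, 1, 1], [2, 1, 1, 2]]
def frAL : List (ZMod 3) := [1, 1, 2, 2]
def frBL : List ℕ := [30, 9, 5, 4]
def frI : Fin 40 := 13
def PT : ℕ := 0xa96929995919894909a56525955515854505a16121915111814101a4642494541484440490501040
def CS1 : ℕ := 0x55555555555556596966
def CS2 : ℕ := 0x55556aaaa56a96aaaaaa
def IMG1 : ℕ := 0x6df5189517a238d7644da8505e79925a33dc8156470862803040c914804b
def IMG2 : ℕ := 0x41335665c95f89d69739446382620b1463090c009879b48f5679211c4281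
def pt (i : ℕ) : List (ZMod 3) := ptOf (fun x => (x : ZMod 3)) PT 2 4 i
def witJ : Fin 4 := 0
def witK : Fin 4 := 0

theorem chk1 : genChkW [AL] pt (fun i => (fun x => (x : ZMod 3)) (tb CS1 2 i)) (tb IMG1 6) ntl 1 40 := by
  decide +kernel
theorem chk2 : genChkW [BL] pt (fun i => (fun x => (x : ZMod 3)) (tb CS2 2 i)) (tb IMG2 6) ntl 2 40 := by
  decide +kernel

end Cfsg.Agent.Lib.Helper3.S43
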