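import Cfsg.Agent.Lib.Helper3.S43.Mat
import Cfsg.Agent.S0245
import Cfsg.Agent.S0246
import Cfsg.Prelude.Def_Classical

set_option autoImplicit false
set_option maxRecDepth 100000

namespace Cfsg.Agent.Lib.Helper3.S43

open Cfsg.Agent.Lib.Helper11 Cfsg.Agent.Lib.Helper3 Matrix

set_option maxHeartbeats 0

/-- the index type -/
abbrev II : Type := Fin 2 ⊕ Fin 2

/-- numbering of the coordinates -/
def ee : II ≃ Fin 4 where
  toFun
    | .inl i => ⟨i.val, by omega⟩
    | .inr i => ⟨2 + i.val, by omega⟩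
  invFun k := if h : k.val < 2 then .inl ⟨k.val, h⟩ else .inr ⟨k.val - 2, by omega⟩
  left_inv := by decide
  right_inv := by decide

/-- the symplectic group -/
abbrev Spd : Type := Matrix.symplecticGroup (Fin 2) (ZMod 3)

theorem symA : toM ee AL * Matrix.J (Fin 2) (ZMod 3) * (toM ee AL)ᵀ = Matrix.J (Fin 2) (ZMod 3) := by
  decide +kernel
theorem symB : toM ee BL * Matrix.J (Fin 2) (ZMod 3) * (toM ee BL)ᵀ = Matrix.J (Fin 2) (ZMod 3) := by
  decide +kernel

def gA : Spd := ⟨toM ee AL, SymplecticGroup.mem_iff.2 symA⟩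
def gB : Spd := ⟨toM ee BL, SymplecticGroup.mem_iff.2 symB⟩

def TT : Spd →* Matrix II II (ZMod 3) := (Matrix.symplecticGroup (Fin 2) (ZMod 3)).subtype

theorem TT_inj : Function.Injective TT := Subtype.val_injective

def vM (l : ℕ) : Spd := if l = 1 then gA else if l = 2 then gB else 1

theorem card_psp : Nat.card (Cfsg.PSp 2 (ZMod 3)) = 25920 := by
  have h := Cfsg.Agent.S0245.result (F := ZMod 3) (q := 3) (by simp) 2
  have h2 : (∏ i ∈ Finset.range 2, (3 ^ (2 * (i + 1)) - 1)) = 640 := by decide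
  rw [h2] at h
  have h3 := Cfsg.Agent.S0246.result (F := ZMod 3) (q := 3) (by simp) 2 (by norm_num)
  have h4 : Nat.gcd 2 (3 - 1) = 2 := by decide
  rw [h4] at h3
  have h5 := Subgroup.card_eq_card_quotient_mul_card_subgroup (Subgroup.center Spd)
  rw [h, h3] at h5
  have h6 : Nat.card (Cfsg.PSp 2 (ZMod 3)) = Nat.card (Spd ⧸ Subgroup.center Spd) := rfl
  rw [h6]
  norm_num at h5
  omega

def pp : Fin 40 → II → ZMod 3 := fun i => toV ee (pt i)

def frB : II → Fin 40 := fun k => ⟨frBL.getD (ee k) 0 % 40, Nat.mod_lt _ (by norm_num)⟩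

theorem ncOK : (mvW [AL, BL] (basL 4 witJ)).getD witK 0 ≠ (mvW [BL, AL] (basL 4 witJ)).getD witK 0 := by
  decide +kernel

theorem psp_iso : Nonempty (Cfsg.PSp 2 (ZMod 3) ≃* lgrp (vL ntl deg) [1, 2]) := by
  apply quot_iso_of_graph (projGraph TT pp) (Subgroup.center Spd)
    _ vM (vL ntl deg) [1, 2] _ simple 25920 card_eq card_psp (by norm_num)
  · refine ⟨1, by simp, ?_⟩
    intro h
    have h1 := (Subgroup.mem_center_iff.1 h) gB
    have h2 : TT (gB * gA) = TT (gA * gB) := congrArg TT h1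
    have h3 : TT (gA * gB) = ([AL, BL].map (toM ee)).prod := by simp; rfl
    have h4 : TT (gB * gA) = ([BL, AL].map (toM ee)).prod := by simp; rfl
    rw [h3, h4] at h2
    exact prod_toM_ne ee _ _ (by decide) (by decide) witJ witK ncOK h2.symm
  · intro g hg
    obtain ⟨c0, hc⟩ := scalar_of_projGraph TT pp frB frI (toM ee frInvL) (toV ee frAL)
      (by decide +kernel) (by decide +kernel) (by decide +kernel) g hg
    exact mem_center_of_scalar TT TT_inj g c0 hc
  · intro x hx
    simp only [List.mem_cons, List.mem_nil_iff, or_false] at hx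
    rcases hx with rfl | rfl
    · exact setup.mem_projGraph_of_chkW TT gA ee [AL] (by decide) (by simp; rfl) pt
        (fun i => ptOf_length _ _ _ _ _) _ _ 1 chk1
    · exact setup.mem_projGraph_of_chkW TT gB ee [BL] (by decide) (by simp; rfl) pt
        (fun i => ptOf_length _ _ _ _ _) _ _ 2 chk2

end Cfsg.Agent.Lib.Helper3.S43
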